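import Mathlib
import Cfsg.Agent.Lib.Helper63.BB.Defs
import Cfsg.Agent.Lib.Helper59.MC.Struct
import Cfsg.Agent.Lib.Helper85.UnifElt
import Cfsg.Agent.S4209

/-!
# S4144 "BB" package [A]: in a `p`-group of maximal class of order `p ^ (p+2)` with the power
structure, all two-step centralizers coincide and some `p`-th power lies outside `L p`.
-/

set_option autoImplicit false

namespace Cfsg.Agent.Lib.Helper85.BB4144

open scoped commutatorElement
open Cfsg.Agent.Lib.Helper63.MC Cfsg.Agent.Lib.Helper63.BB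

universe u

theorem pkgA_of (hKB : PkgKBasic.{u}) (hAP : PkgAPow.{u}) : PkgA.{u} := by
  intro X _ _ p _ hcard hcl hPS
  have hp : p.Prime := Fact.out
  have hp2 : 2 ≤ p := hp.two_le
  have hcl' : Group.nilpotencyClass X = p + 2 - 1 := hcl.trans (by omega)
  obtain ⟨hcL, -⟩ := Cfsg.Agent.Lib.Helper59.MC.pkgStruct X p (p + 2) (by omega) hcard hcl'
  have hKBi : ∀ i, 1 ≤ i → i + 1 ≤ p →
      L X 1 ≤ K X i ∧ K X i ≠ ⊤ ∧ Nat.card (K X i) = p ^ (p + 1) := by
    intro i hi1 hi2
    have h := hKB X p (p + 2) (by omega) hcard hcl' i hi1 (by omega)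
    have e : p + 2 - 1 = p + 1 := by omega
    rw [e] at h
    exact h
  have hc1 : Nat.card (L X 1) = p ^ p := by
    have h := hcL 1 le_rfl (by omega)
    have e : p + 2 - 1 - 1 = p := by omega
    rw [e] at h
    exact h
  have hcp1 : Nat.card (L X (p - 1)) = p ^ 2 := by
    have h := hcL (p - 1) (by omega) (by omega)
    have e : p + 2 - 1 - (p - 1) = 2 := by omega
    rw [e] at h
    exact h
  have hcp : Nat.card (L X p) = p := by
    have h := hcL p (by omega) (by omega)
    have e : p + 2 - 1 - p = 1 := by omega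
    rw [e, pow_one] at h
    exact h
  have hbot : L X (p + 1) = ⊥ := by
    have h := hcL (p + 1) (by omega) (by omega)
    have e : p + 2 - 1 - (p + 1) = 0 := by omega
    rw [e, pow_zero] at h
    exact Subgroup.eq_bot_of_card_eq _ h
  have hLanti : L X p ≤ L X (p - 1) := Subgroup.lowerCentralSeries_antitone _ (by omega)
  -- `L p` is central
  have hLpc : ∀ a ∈ L X p, ∀ g : X, a * g = g * a := by
    intro a ha g
    have h1 : ⁅a, g⁆ ∈ L X (p + 1) :=
      Subgroup.commutator_mem_commutator ha (Subgroup.mem_top g)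
    rw [hbot, Subgroup.mem_bot] at h1
    exact commutatorElement_eq_one_iff_mul_comm.mp h1
  -- `L 1` centralizes `L (p-1)`
  have hL1c : ∀ b ∈ L X 1, ∀ a ∈ L X (p - 1), a * b = b * a := by
    intro b hb a ha
    have h1 : ⁅a, b⁆ ∈ L X (p - 1 + 1 + 1) :=
      Cfsg.Agent.S4209.lcs_comm_top (p - 1) 1 (Subgroup.commutator_mem_commutator ha hb)
    have e : p - 1 + 1 + 1 = p + 1 := by omega
    rw [e, hbot, Subgroup.mem_bot] at h1
    exact commutatorElement_eq_one_iff_mul_comm.mp h1
  -- elements of `K w` outside `L 1` centralize `L (p-1)`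
  have hkey : ∀ w, 1 ≤ w → w + 1 ≤ p → ∀ m ∈ K X w, m ∉ L X 1 →
      ∀ a ∈ L X (p - 1), a * m = m * a := by
    intro w hw1 hw2 m hm hmL a ha
    obtain ⟨h1, h2⟩ := hAP X p hcard hcl hPS w hw1 hw2 m hm hmL
    have hsup : L X (p - 1) ≤ Subgroup.zpowers (m ^ p) ⊔ L X p :=
      Cfsg.Agent.Lib.Helper85.UnifElt.le_zpowers_sup hLanti
        (by rw [hcp1, hcp, pow_two]) h1 h2
    have hle : Subgroup.zpowers (m ^ p) ⊔ L X p ≤ Subgroup.centralizer ({m} : Set X) := by
      refine sup_le ?_ ?_
      · rw [Subgroup.zpowers_le, Subgroup.mem_centralizer_iff]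
        intro h hh
        rw [Set.mem_singleton_iff] at hh
        rw [hh, ← pow_succ, ← pow_succ']
      · intro c hc
        rw [Subgroup.mem_centralizer_iff]
        intro h hh
        rw [Set.mem_singleton_iff] at hh
        rw [hh]
        exact (hLpc c hc m).symm
    have h3 := hle (hsup ha)
    rw [Subgroup.mem_centralizer_iff] at h3
    exact (h3 m rfl).symm
  have hKC : ∀ w, 1 ≤ w → w + 1 ≤ p →
      K X w ≤ Subgroup.centralizer ((L X (p - 1) : Subgroup X) : Set X) := by
    intro w hw1 hw2 m hm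
    rw [Subgroup.mem_centralizer_iff]
    intro a ha
    by_cases hmL : m ∈ L X 1
    · exact hL1c m hmL a ha
    · exact hkey w hw1 hw2 m hm hmL a ha
  constructor
  · intro w hw1 hw2
    by_contra hne
    obtain ⟨-, -, hcw⟩ := hKBi w hw1 hw2
    obtain ⟨-, -, hc1'⟩ := hKBi 1 le_rfl (by omega)
    obtain ⟨t, htw, ht1⟩ : ∃ t, t ∈ K X w ∧ t ∉ K X 1 := by
      by_contra hcon
      push Not at hcon
      exact hne (Subgroup.eq_of_le_of_card_ge hcon (by rw [hcw, hc1']))
    set C := Subgroup.centralizer ((L X (p - 1) : Subgroup X) : Set X) with hC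
    have hK1C : K X 1 ≤ C := hKC 1 le_rfl (by omega)
    have htC : t ∈ C := hKC w hw1 hw2 htw
    have hCtop : C = ⊤ := by
      have hd1 : Nat.card (K X 1) ∣ Nat.card C := Subgroup.card_dvd_of_le hK1C
      have hd2 : Nat.card C ∣ Nat.card X := Subgroup.card_subgroup_dvd_card C
      rw [hcard] at hd2
      obtain ⟨j, hj, hCj⟩ := (Nat.dvd_prime_pow hp).mp hd2
      rw [hc1', hCj] at hd1
      have hj1 : p + 1 ≤ j := (Nat.pow_dvd_pow_iff_le_right hp.one_lt).mp hd1
      rcases Nat.lt_or_ge j (p + 2) with hlt | hge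
      · exfalso
        have hj2 : j = p + 1 := by omega
        have : K X 1 = C := Subgroup.eq_of_le_of_card_ge hK1C (by rw [hCj, hc1', hj2])
        exact ht1 (this ▸ htC)
      · have hj2 : j = p + 2 := by omega
        exact (Subgroup.card_eq_iff_eq_top C).mp (by rw [hCj, hj2, hcard])
    -- `L (p-1)` is central, so `L p = ⊥`
    have hLp : L X p = ⊥ := by
      have e : L X p = ⁅L X (p - 1), (⊤ : Subgroup X)⁆ := by
        have e1 : p = (p - 1) + 1 := by omega
        conv_lhs => rw [e1]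
        exact Subgroup.lowerCentralSeries_succ _ _
      rw [e, Subgroup.commutator_eq_bot_iff_le_centralizer]
      intro a ha
      rw [Subgroup.mem_centralizer_iff]
      intro g _
      have hg : g ∈ C := by rw [hCtop]; exact Subgroup.mem_top g
      rw [hC, Subgroup.mem_centralizer_iff] at hg
      exact (hg a ha).symm
    rw [hLp, Subgroup.card_bot] at hcp
    omega
  · obtain ⟨hL1K, -, hc1'⟩ := hKBi 1 le_rfl (by omega)
    obtain ⟨g, hgK, hgL⟩ : ∃ g, g ∈ K X 1 ∧ g ∉ L X 1 := by
      by_contra hcon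
      push Not at hcon
      have hle : Nat.card (K X 1) ≤ Nat.card (L X 1) := Subgroup.card_le_of_le hcon
      rw [hc1', hc1] at hle
      have := Nat.pow_lt_pow_right hp.one_lt (by omega : p < p + 1)
      omega
    exact ⟨g, (hAP X p hcard hcl hPS 1 le_rfl (by omega) g hgK hgL).2⟩

end Cfsg.Agent.Lib.Helper85.BB4144
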